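import Mathlib.GroupTheory.SpecificGroups.Dihedral
import Mathlib.GroupTheory.Perm.Basic
import Mathlib.Logic.Equiv.Fin.Rotate
import Mathlib.GroupTheory.Perm.Sign
import Mathlib.Data.ZMod.Basic
import Mathlib.Data.Set.Card

/-!
The Sylow two-subgroup of `S₄ × C₂` as `C₂ × D₈`, with the finite computations.
-/

set_option autoImplicit false

namespace Cfsg.Agent.H91.ZN

open Subgroup

/-- `C₂ × D₈`. -/
abbrev D8C2 := Multiplicative (ZMod 2) × DihedralGroup 4

/-- `S₄ × C₂`. -/
abbrev S4C2 := Equiv.Perm (Fin 4) × Multiplicative (ZMod 2)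

/-- The central involution outside the squares. -/
def dT : D8C2 := (Multiplicative.ofAdd 1, .r 0)
/-- The square involution. -/
def dZ : D8C2 := (1, .r 2)
/-- A double transposition. -/
def dW : D8C2 := (1, .sr 0)

/-- `D₈` inside `S₄`. -/
def psi : DihedralGroup 4 → Equiv.Perm (Fin 4)
  | .r i => finRotate 4 ^ i.val
  | .sr i => Equiv.swap 0 1 * Equiv.swap 2 3 * finRotate 4 ^ i.val

theorem psi_mul : ∀ x y : DihedralGroup 4, psi (x * y) = psi x * psi y := by decide +kernel

/-- The embedding of the Sylow subgroup. -/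
def dEmb : D8C2 →* S4C2 :=
  MonoidHom.mk' (fun x => (psi x.2, x.1)) fun x y => Prod.ext (psi_mul x.2 y.2) rfl

theorem dEmb_apply (x : D8C2) : dEmb x = (psi x.2, x.1) := rfl

theorem dEmb_inj : Function.Injective dEmb := by
  intro x y h
  revert h x y
  decide +kernel

/-- The central involution of `S₄ × C₂`. -/
def sT : S4C2 := (1, Multiplicative.ofAdd 1)

theorem sT_center : ∀ x : S4C2, x * sT = sT * x := by decide +kernel

theorem dEmb_T : dEmb dT = sT := by decide +kernel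

theorem W_conj : ∃ k : S4C2, k * dEmb dZ * k⁻¹ = dEmb dW := by decide +kernel

theorem sq_conj : ∀ y : S4C2, (y * y) * (y * y) = 1 → y * y ≠ 1 →
    ∃ k : S4C2, k * dEmb dZ * k⁻¹ = y * y := by decide +kernel

theorem dT_sq : dT * dT = 1 := by decide +kernel

theorem dW_sq : dW * dW = 1 := by decide +kernel

theorem dT_dW : dT * dW = dW * dT := by decide +kernel

theorem dT_ne_one : dT ≠ 1 := by decide +kernel

/-- The double transpositions of `S₄`. -/
def vFour : Set (Equiv.Perm (Fin 4)) :=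
  {p | p = 1 ∨ p = Equiv.swap 0 1 * Equiv.swap 2 3 ∨ p = Equiv.swap 0 2 * Equiv.swap 1 3 ∨
    p = Equiv.swap 0 3 * Equiv.swap 1 2}

instance : DecidablePred (· ∈ vFour) := fun p => by unfold vFour; infer_instance

/-- The Klein four-group of `S₄`. -/
def vGroup : Subgroup (Equiv.Perm (Fin 4)) where
  carrier := vFour
  one_mem' := by decide +kernel
  mul_mem' := fun {a b} => by revert a b; decide +kernel
  inv_mem' := fun {a} => by revert a; decide +kernel

theorem vGroup_conj : ∀ g p : Equiv.Perm (Fin 4), p ∈ vFour → g * p * g⁻¹ ∈ vFour := by decide +kernel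

theorem vGroup_sq : ∀ p : Equiv.Perm (Fin 4), p ∈ vFour → p * p = 1 := by decide +kernel

theorem vGroup_cent : ∀ g : Equiv.Perm (Fin 4), (∀ p ∈ vFour, p * g = g * p) → g ∈ vFour := by
  decide +kernel

theorem vGroup_card : Nat.card ↥vGroup = 4 := by
  have h : ((Finset.univ.filter fun p => p ∈ vFour : Finset (Equiv.Perm (Fin 4))) : Set (Equiv.Perm (Fin 4))) =
      (vGroup : Set (Equiv.Perm (Fin 4))) := by ext p; simp; rfl
  rw [← SetLike.coe_sort_coe, Nat.card_coe_set_eq, ← h, Set.ncard_coe_finset]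
  decide +kernel

/-- The elementary subgroup of order eight of `S₄ × C₂`. -/
def vBig : Subgroup S4C2 := vGroup.prod ⊤

theorem D_center : ∀ x : D8C2, (∀ y, x * y = y * x) → x = 1 ∨ x = dT ∨ x = dZ ∨ x = dT * dZ := by
  decide +kernel

theorem D_central : ∀ x : D8C2, (x = 1 ∨ x = dT ∨ x = dZ ∨ x = dT * dZ) → ∀ y, x * y = y * x := by
  decide +kernel

theorem D_exp : ∀ x : D8C2, (x * x) * (x * x) = 1 := by decide +kernel

theorem D_sq : ∀ x : D8C2, x * x = 1 ∨ x * x = dZ := by decide +kernel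

theorem T_not_sq : ∀ x : D8C2, x * x ≠ dT := by decide +kernel

theorem TZ_not_sq : ∀ x : D8C2, x * x ≠ dT * dZ := by decide +kernel

/-- The elementary subgroup containing the double transpositions. -/
def inV (x : D8C2) : Prop := ∃ (a : Multiplicative (ZMod 2)) (i : ZMod 4),
  (i = 0 ∨ i = 2) ∧ (x = (a, .r i) ∨ x = (a, .sr i))

instance : DecidablePred inV := fun x => by unfold inV; infer_instance

theorem dW_cent : ∀ x : D8C2, x * dW = dW * x → inV x := by decide +kernel

theorem inV_mem : ∀ x : D8C2, inV x ↔ psi x.2 ∈ vFour := by decide +kernel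



theorem vBig_range : ∀ s : S4C2, s.1 ∈ vFour → ∃ x : D8C2, dEmb x = s := by decide +kernel

theorem inV_cent : ∀ x : D8C2, inV x → x * dW = dW * x := by decide +kernel

theorem cent_cases : ∀ x y : D8C2, x * x = 1 → ¬ (x = 1 ∨ x = dT ∨ x = dZ ∨ x = dT * dZ) →
    x * y = y * x → (inV x ↔ inV y) ∨ y = 1 ∨ y = dT ∨ y = dZ ∨ y = dT * dZ := by decide +kernel

/-- The character vanishing on both sets of double transpositions. -/
def chi (a : ZMod 2) : D8C2 → ZMod 2
  | (b, .r i) => Multiplicative.toAdd b + a * (i.val : ZMod 2)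
  | (b, .sr i) => Multiplicative.toAdd b + a * (i.val : ZMod 2)

theorem chi_mul : ∀ (a : ZMod 2) (x y : D8C2), chi a (x * y) = chi a x + chi a y := by decide +kernel

/-- The kernel of the character. -/
def chiKer (a : ZMod 2) : Subgroup D8C2 :=
  (MonoidHom.mk' (fun x => Multiplicative.ofAdd (chi a x)) fun x y => by rw [chi_mul, ofAdd_add]).ker

theorem mem_chiKer {a : ZMod 2} {x : D8C2} : x ∈ chiKer a ↔ chi a x = 0 := by
  simp [chiKer, MonoidHom.mem_ker]

/-- A second double transposition. -/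
def dX (a : ZMod 2) : D8C2 := (Multiplicative.ofAdd a, .sr 1)

theorem chiKer_gen : ∀ (a : ZMod 2) (x : D8C2), chi a x = 0 →
    ∃ i : Fin 4, x = (dW * dX a) ^ (i : ℕ) ∨ x = dW * (dW * dX a) ^ (i : ℕ) := by decide +kernel

theorem invol_class : ∀ (a : ZMod 2) (x : D8C2), x ≠ 1 → x * x = 1 →
    (chi a x = 0 ∧ (x = dZ ∨ ∃ y, y * x * y⁻¹ = dW ∨ y * x * y⁻¹ = dX a)) ∨
    (chi a x = 1 ∧ (x = dT ∨ x = dT * dZ ∨ ∃ y, y * x * y⁻¹ = dT * dW ∨ y * x * y⁻¹ = dT * dZ * dX a)) := by
  decide +kernel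

theorem not_inV_involution : ∀ x : D8C2, x * x = 1 → ¬ inV x → ∃ (a : ZMod 2) (y : D8C2), y * x * y⁻¹ = dX a := by
  decide +kernel

/-- An element of order four. -/
def dR : D8C2 := (1, .r 1)

theorem order_four : ∀ x : D8C2, x * x = dZ → x = dR ∨ x = dR * dZ ∨ x = dT * dR ∨ x = dT * dR * dZ := by
  decide +kernel


theorem inV_cent_eq : ∀ w x : D8C2, w * w = 1 → inV w → ¬ (w = 1 ∨ w = dT ∨ w = dZ ∨ w = dT * dZ) →
    (x * w = w * x ↔ x * dW = dW * x) := by decide +kernel


theorem not_inV_cent_dX : ∀ (x : D8C2), x * x = 1 → ¬ inV x →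
    ∀ (u : D8C2) (a : ZMod 2), (u * x = x * u ↔ u * dX a = dX a * u) := by decide +kernel

theorem not_inV_dX_conj : ∀ (a : ZMod 2) (y : D8C2),
    (y * dX a * y⁻¹) * (y * dX a * y⁻¹) = 1 ∧ ¬ inV (y * dX a * y⁻¹) := by decide +kernel

theorem not_inV_cent_eq (x u : D8C2) (a : ZMod 2) (y : D8C2) (hx2 : x * x = 1) (hx : ¬ inV x)
    (_ : ¬ (x = 1 ∨ x = dT ∨ x = dZ ∨ x = dT * dZ)) :
    (u * x = x * u ↔ u * (y * dX a * y⁻¹) = y * dX a * y⁻¹ * u) :=
  (not_inV_cent_dX x hx2 hx u a).trans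
    (not_inV_cent_dX _ (not_inV_dX_conj a y).1 (not_inV_dX_conj a y).2 u a).symm

end Cfsg.Agent.H91.ZN
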